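import Mathlib

/-!
helper15: Gaschütz's theorem, general form.  Crossed homomorphisms `X → A` into an abelian normal
subgroup, their transfer from a subgroup `H ≥ A` in which `A` is complemented, and the additive
subgroup of `ℤ` of the exponents `k` for which some crossed homomorphism restricts to `a ↦ a ^ k`
on `A` (`A` is complemented in `X` iff it contains `1`).
-/

set_option autoImplicit false

namespace Cfsg.Agent.Helper15

open scoped IsMulCommutative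

section CrossedHom

variable {X : Type*} [Group X]

/-- Transfer of the crossed homomorphism `h ↦ h * (c h)⁻¹` of `H` (where `c` retracts `H` onto a
complement of `A`) to a crossed homomorphism of `X` which is the `|X : H|`-th power map on `A`. -/
theorem crossed_transfer [Finite X] (A H : Subgroup X) [hAn : A.Normal] [IsMulCommutative A]
    (hAH : A ≤ H) (c : X → X) (hcA : ∀ h ∈ H, h * (c h)⁻¹ ∈ A)
    (hcmul : ∀ h ∈ H, ∀ h' ∈ H, c (h * h') = c h * c h')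
    (hca : ∀ a ∈ A, c a = 1) :
    ∃ γ : X → A, (∀ x y : X, γ (x * y) = γ x * (MulAut.conjNormal x : MulAut A) (γ y)) ∧
      ∀ a : A, γ (a : X) = a ^ H.index := by
  classical
  haveI : Fintype (X ⧸ H) := Fintype.ofFinite _
  -- the crossed homomorphism `h ↦ h * (c h)⁻¹` on `H`
  have hb : ∀ h ∈ H, ∀ h' ∈ H, (h * h') * (c (h * h'))⁻¹ =
      (h * (c h)⁻¹) * (h * (h' * (c h')⁻¹) * h⁻¹) := by
    intro h hh h' hh'
    rw [hcmul h hh h' hh']
    have ha : h * (c h)⁻¹ ∈ A := hcA h hh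
    have ha' : h' * (c h')⁻¹ ∈ A := hcA h' hh'
    have hw : c h * (h' * (c h')⁻¹) * (c h)⁻¹ ∈ A := hAn.conj_mem _ ha' _
    have e2 : (h * (c h)⁻¹) * (c h * (h' * (c h')⁻¹) * (c h)⁻¹) =
        (c h * (h' * (c h')⁻¹) * (c h)⁻¹) * (h * (c h)⁻¹) :=
      congrArg Subtype.val (mul_comm' (⟨_, ha⟩ : A) ⟨_, hw⟩)
    calc h * h' * (c h * c h')⁻¹
        = (h * (c h)⁻¹) * (c h * (h' * (c h')⁻¹) * (c h)⁻¹) := by group
      _ = (h * (c h)⁻¹) * (((c h * (h' * (c h')⁻¹) * (c h)⁻¹) * (h * (c h)⁻¹)) *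
            (h * (c h)⁻¹)⁻¹) := by group
      _ = (h * (c h)⁻¹) * (((h * (c h)⁻¹) * (c h * (h' * (c h')⁻¹) * (c h)⁻¹)) *
            (h * (c h)⁻¹)⁻¹) := by rw [e2]
      _ = h * (c h)⁻¹ * (h * (h' * (c h')⁻¹) * h⁻¹) := by group
  obtain ⟨r, hr⟩ : ∃ r : X ⧸ H → X, ∀ q : X ⧸ H, ((r q : X) : X ⧸ H) = q :=
    ⟨fun q => q.out, fun q => QuotientGroup.out_eq' q⟩
  have hsm : ∀ (x : X) (q : X ⧸ H), x • q = ((x * r q : X) : X ⧸ H) := by
    intro x q
    conv_lhs => rw [← hr q]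
    rfl
  have hmem : ∀ (x : X) (q : X ⧸ H), (r (x • q))⁻¹ * (x * r q) ∈ H := by
    intro x q
    rw [← QuotientGroup.eq, hr]
    exact hsm x q
  obtain ⟨t, ht⟩ : ∃ t : X → X ⧸ H → A, ∀ x q, ((t x q : A) : X) =
      r (x • q) * ((r (x • q))⁻¹ * (x * r q) * (c ((r (x • q))⁻¹ * (x * r q)))⁻¹) *
        (r (x • q))⁻¹ :=
    ⟨fun x q => ⟨_, hAn.conj_mem _ (hcA _ (hmem x q)) _⟩, fun _ _ => rfl⟩
  have ht_mul : ∀ (x y : X) (q : X ⧸ H),
      t (x * y) q = t x (y • q) * (MulAut.conjNormal x : MulAut A) (t y q) := by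
    intro x y q
    apply Subtype.ext
    rw [Subgroup.coe_mul, MulAut.conjNormal_apply, ht, ht, ht, mul_smul]
    have e : (r (x • y • q))⁻¹ * (x * y * r q) =
        ((r (x • y • q))⁻¹ * (x * r (y • q))) * ((r (y • q))⁻¹ * (y * r q)) := by group
    rw [e, hb _ (hmem x (y • q)) _ (hmem y q)]
    group
  obtain ⟨γ, hγ⟩ : ∃ γ : X → A, ∀ x, γ x = ∏ q : X ⧸ H, t x q := ⟨_, fun _ => rfl⟩
  have hγ_mul : ∀ x y : X, γ (x * y) = γ x * (MulAut.conjNormal x : MulAut A) (γ y) := by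
    intro x y
    have e1 : ∏ q : X ⧸ H, t (x * y) q =
        ∏ q : X ⧸ H, (t x (y • q) * (MulAut.conjNormal x : MulAut A) (t y q)) :=
      Finset.prod_congr rfl (fun q _ => ht_mul x y q)
    have e2 : ∏ q : X ⧸ H, t x (y • q) = ∏ q : X ⧸ H, t x q :=
      Equiv.prod_comp (MulAction.toPerm y) (fun q => t x q)
    rw [hγ, hγ, hγ, e1, Finset.prod_mul_distrib, e2, map_prod]
  have hγ_a : ∀ a ∈ A, ((γ a : A) : X) = a ^ H.index := by
    intro a ha
    have hq : ∀ q : X ⧸ H, a • q = q := by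
      intro q
      rw [hsm]
      conv_rhs => rw [← hr q]
      rw [QuotientGroup.eq]
      have e : (a * r q)⁻¹ * r q = (r q)⁻¹ * a⁻¹ * ((r q)⁻¹)⁻¹ := by group
      rw [e]
      exact hAH (hAn.conj_mem _ (A.inv_mem ha) _)
    have htq : ∀ q : X ⧸ H, t a q = ⟨a, ha⟩ := by
      intro q
      apply Subtype.ext
      rw [ht, hq]
      have hm : (r q)⁻¹ * (a * r q) ∈ A := by
        have e : (r q)⁻¹ * (a * r q) = (r q)⁻¹ * a * ((r q)⁻¹)⁻¹ := by group
        rw [e]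
        exact hAn.conj_mem _ ha _
      rw [hca _ hm]
      group
    rw [hγ, Finset.prod_congr rfl (fun q _ => htq q), Finset.prod_const, Finset.card_univ,
      Subgroup.coe_pow, Subgroup.index_eq_card, Nat.card_eq_fintype_card]
  exact ⟨γ, hγ_mul, fun a => Subtype.ext (by rw [hγ_a a a.2, Subgroup.coe_pow])⟩

/-- A crossed homomorphism `X → A` which is the identity on `A` gives a complement of `A`. -/
theorem complement_of_crossed (A : Subgroup X) [hAn : A.Normal] [IsMulCommutative A]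
    (β : X → A) (hβ_mul : ∀ x y : X, β (x * y) = β x * (MulAut.conjNormal x : MulAut A) (β y))
    (hβ_a : ∀ a : A, β (a : X) = a) :
    ∃ K : Subgroup X, K.IsComplement' A := by
  have hβ_one : β 1 = 1 := hβ_a 1
  let K : Subgroup X :=
    { carrier := {x | β x = 1}
      one_mem' := hβ_one
      mul_mem' := by
        intro x y hx hy
        show β (x * y) = 1
        rw [hβ_mul, show β x = 1 from hx, show β y = 1 from hy, map_one, one_mul]
      inv_mem' := by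
        intro x hx
        show β x⁻¹ = 1
        have h1 := hβ_mul x⁻¹ x
        rw [inv_mul_cancel, hβ_one, show β x = 1 from hx, map_one, mul_one] at h1
        exact h1.symm }
  refine ⟨K, Subgroup.isComplement'_of_disjoint_and_mul_eq_univ ?_ ?_⟩
  · rw [Subgroup.disjoint_def]
    intro x hx hxA
    have h1 : β x = 1 := hx
    have h2 : β x = ⟨x, hxA⟩ := hβ_a ⟨x, hxA⟩
    rw [h1] at h2
    exact (congrArg Subtype.val h2).symm
  · rw [Set.eq_univ_iff_forall]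
    intro x
    refine Set.mem_mul.mpr ⟨(β x : X)⁻¹ * x, ?_, x⁻¹ * (β x : X) * x, ?_, by group⟩
    · show β ((β x : X)⁻¹ * x) = 1
      have h1 : β ((β x : X)⁻¹) = (β x)⁻¹ := hβ_a (β x)⁻¹
      rw [hβ_mul, h1]
      apply Subtype.ext
      rw [Subgroup.coe_mul, MulAut.conjNormal_apply]
      simp
    · have h1 := hAn.conj_mem _ (β x).2 x⁻¹
      rw [inv_inv] at h1
      exact h1

/-- The exponents `k` such that some crossed homomorphism `X → A` is `a ↦ a ^ k` on `A`. -/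
def crossedIdeal (A : Subgroup X) [A.Normal] [IsMulCommutative A] : AddSubgroup ℤ where
  carrier := {k | ∃ γ : X → A,
    (∀ x y : X, γ (x * y) = γ x * (MulAut.conjNormal x : MulAut A) (γ y)) ∧
      ∀ a : A, γ (a : X) = a ^ k}
  zero_mem' := ⟨fun _ => 1, fun x y => by simp, fun a => by simp⟩
  add_mem' := by
    rintro k₁ k₂ ⟨γ₁, h₁, h₁'⟩ ⟨γ₂, h₂, h₂'⟩
    refine ⟨fun x => γ₁ x * γ₂ x, fun x y => ?_, fun a => ?_⟩
    · show γ₁ (x * y) * γ₂ (x * y) =
        γ₁ x * γ₂ x * (MulAut.conjNormal x : MulAut A) (γ₁ y * γ₂ y)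
      rw [h₁, h₂, map_mul]
      exact mul_mul_mul_comm _ _ _ _
    · show γ₁ a * γ₂ a = a ^ (k₁ + k₂)
      rw [h₁', h₂', zpow_add]
  neg_mem' := by
    rintro k ⟨γ, h, h'⟩
    refine ⟨fun x => (γ x)⁻¹, fun x y => ?_, fun a => ?_⟩
    · show (γ (x * y))⁻¹ = (γ x)⁻¹ * (MulAut.conjNormal x : MulAut A) (γ y)⁻¹
      rw [h, mul_inv, map_inv]
    · show (γ a)⁻¹ = a ^ (-k)
      rw [h', zpow_neg]

theorem index_mem_crossedIdeal [Finite X] (A H : Subgroup X) [hAn : A.Normal]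
    [IsMulCommutative A] (hAH : A ≤ H) (c : X → X) (hcA : ∀ h ∈ H, h * (c h)⁻¹ ∈ A)
    (hcmul : ∀ h ∈ H, ∀ h' ∈ H, c (h * h') = c h * c h')
    (hca : ∀ a ∈ A, c a = 1) : (H.index : ℤ) ∈ crossedIdeal A := by
  obtain ⟨γ, h1, h2⟩ := crossed_transfer A H hAH c hcA hcmul hca
  exact ⟨γ, h1, fun a => by rw [h2, zpow_natCast]⟩

theorem complement_of_one_mem (A : Subgroup X) [hAn : A.Normal] [IsMulCommutative A]
    (h : (1 : ℤ) ∈ crossedIdeal A) : ∃ K : Subgroup X, K.IsComplement' A := by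
  obtain ⟨β, h1, h2⟩ := h
  exact complement_of_crossed A β h1 (fun a => by rw [h2, zpow_one])

end CrossedHom

/-- An additive subgroup of `ℤ` containing, for each prime `p ∣ n`, a divisor of `n` prime to `p`
contains `1` (for `n ≠ 1`). -/
theorem one_mem_of_primes (I : AddSubgroup ℤ) (n : ℕ) (hn : n ≠ 1)
    (hf : ∀ p : ℕ, p.Prime → p ∣ n → ∃ m : ℕ, (m : ℤ) ∈ I ∧ m ∣ n ∧ ¬ p ∣ m ∧ m ≠ 0) :
    (1 : ℤ) ∈ I := by
  classical
  obtain ⟨p₀, hp₀, hp₀n⟩ := Nat.exists_prime_and_dvd hn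
  obtain ⟨m₀, hm₀I, hm₀n, -, hm₀0⟩ := hf p₀ hp₀ hp₀n
  have hex : ∃ d : ℕ, 0 < d ∧ (d : ℤ) ∈ I := ⟨m₀, Nat.pos_of_ne_zero hm₀0, hm₀I⟩
  obtain ⟨d, hd, hmin⟩ : ∃ d : ℕ, (0 < d ∧ (d : ℤ) ∈ I) ∧
      ∀ m : ℕ, 0 < m → (m : ℤ) ∈ I → d ≤ m :=
    ⟨Nat.find hex, Nat.find_spec hex, fun m h1 h2 => Nat.find_min' hex ⟨h1, h2⟩⟩
  have hdvd : ∀ m : ℕ, (m : ℤ) ∈ I → d ∣ m := by
    intro m hm
    by_contra hnd
    have hpos : 0 < m % d := Nat.pos_of_ne_zero (fun h0 => hnd (Nat.dvd_of_mod_eq_zero h0))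
    have hmem : ((m % d : ℕ) : ℤ) ∈ I := by
      have h := Nat.mod_add_div m d
      have h' : ((m % d : ℕ) : ℤ) + (d : ℤ) * ((m / d : ℕ) : ℤ) = (m : ℤ) := by exact_mod_cast h
      have e : ((m % d : ℕ) : ℤ) = (m : ℤ) - (m / d : ℕ) • (d : ℤ) := by
        rw [nsmul_eq_mul]; linarith
      rw [e]
      exact I.sub_mem hm (I.nsmul_mem hd.2 _)
    have h1 := hmin (m % d) hpos hmem
    have h2 := Nat.mod_lt m hd.1
    omega
  have hd1 : d = 1 := by
    by_contra hne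
    obtain ⟨q, hq, hqd⟩ := Nat.exists_prime_and_dvd hne
    have hqn : q ∣ n := dvd_trans hqd (dvd_trans (hdvd m₀ hm₀I) hm₀n)
    obtain ⟨m, hmI, -, hqm, -⟩ := hf q hq hqn
    exact hqm (dvd_trans hqd (hdvd m hmI))
  rw [hd1] at hd
  exact_mod_cast hd.2

end Cfsg.Agent.Helper15
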