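import Mathlib
import Cfsg.Prelude.Def_GeometricClasses
import Cfsg.Prelude.Def_Classical

/-!
# Involutions of orthogonal groups in characteristic 2 fix a nonsingular point (minus type)

`invol_fix_aux`: abstract version (any "quadratic" map `Q` with `Q (c • v) = c ^ 2 * Q v`, on a space of
dimension `2 n + 2`, whose totally singular subspaces have dimension at most `n`).
`invol_fix_minus`, `invol_fix_minus_omega`: the minus form; the Witt bound is a hypothesis `hts`.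
-/

set_option autoImplicit false
open scoped MatrixGroups
open Cfsg

namespace Cfsg.Agent.Helper15.NS5b

open Matrix

variable {F : Type*} [Field F]

theorem qm_smul (m : ℕ) (a b c : F) (v : (Fin m ⊕ Fin m) ⊕ Fin 2 → F) :
    Cfsg.quadFormMinus m F a b (c • v) = c ^ 2 * Cfsg.quadFormMinus m F a b v := by
  unfold Cfsg.quadFormMinus
  simp only [Pi.smul_apply, smul_eq_mul]
  rw [mul_add, Finset.mul_sum]
  congr 1
  · apply Finset.sum_congr rfl
    intro i _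
    ring
  · ring

theorem invol_fix_aux {ι : Type} [Fintype ι] [DecidableEq ι] (Q : (ι → F) → F) (n : ℕ)
    (hch : (2 : F) = 0)
    (hQs : ∀ (c : F) (v : ι → F), Q (c • v) = c ^ 2 * Q v)
    (hcard : Fintype.card ι = 2 * n + 2)
    (hts : ∀ W : Submodule F (ι → F), (∀ w ∈ W, Q w = 0) → Module.finrank F W ≤ n)
    (X : Matrix ι ι F)
    (hiso : ∀ u, Q (X *ᵥ u) = Q u)
    (z : F) (hxx : X * X = z • 1) :
    ∃ W : Submodule F (ι → F), (Module.finrank F ↥W = 1 ∧ ∃ v ∈ W, Q v ≠ 0) ∧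
      W.map (Matrix.toLin' X) ≤ W := by
  have h3 : Module.finrank F (ι → F) = 2 * n + 2 := by
    rw [Module.finrank_fintype_fun_eq_card, hcard]
  have hQ0 : Q 0 = 0 := by
    have h := hQs 0 0
    rw [zero_smul] at h
    rw [h]
    ring
  have hne : ∃ v, Q v ≠ 0 := by
    by_contra hcon
    push_neg at hcon
    have h1 := hts ⊤ (fun w _ => hcon w)
    rw [finrank_top, h3] at h1
    omega
  obtain ⟨v0, hv0⟩ := hne
  have hz1 : z = 1 := by
    have h1 : Q (X *ᵥ (X *ᵥ v0)) = Q v0 := by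
      rw [hiso, hiso]
    rw [Matrix.mulVec_mulVec, hxx, Matrix.smul_mulVec, Matrix.one_mulVec, hQs] at h1
    have h2 : (z - 1) * (z - 1) * Q v0 = 0 := by
      linear_combination h1 + (1 - z) * Q v0 * hch
    rcases mul_eq_zero.mp h2 with h | h
    · exact sub_eq_zero.mp (mul_self_eq_zero.mp h)
    · exact absurd h hv0
  rw [hz1, one_smul] at hxx
  have htwo : ∀ u : ι → F, u + u = 0 := by
    intro u
    rw [← two_smul F u, hch, zero_smul]
  obtain ⟨f, hf⟩ : ∃ f : (ι → F) →ₗ[F] (ι → F), f = Matrix.toLin' X - 1 := ⟨_, rfl⟩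
  have hfapp : ∀ u, f u = X *ᵥ u - u := by
    intro u
    rw [hf, LinearMap.sub_apply, Matrix.toLin'_apply, Module.End.one_apply]
  have hrk : LinearMap.range f ≤ LinearMap.ker f := by
    rintro _ ⟨u, rfl⟩
    rw [LinearMap.mem_ker, hfapp, hfapp, Matrix.mulVec_sub, Matrix.mulVec_mulVec, hxx,
      Matrix.one_mulVec]
    have e1 := htwo u
    have e2 := htwo (X *ᵥ u)
    calc u - X *ᵥ u - (X *ᵥ u - u) = (u + u) - (X *ᵥ u + X *ᵥ u) := by abel
      _ = 0 := by rw [e1, e2, sub_zero]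
  have h1 := LinearMap.finrank_range_add_finrank_ker f
  have h2 := Submodule.finrank_mono hrk
  rw [h3] at h1
  have hnts : ¬ ∀ w ∈ LinearMap.ker f, Q w = 0 := by
    intro hall
    have h4 := hts _ hall
    omega
  push_neg at hnts
  obtain ⟨w, hw, hQw⟩ := hnts
  have hw0 : w ≠ 0 := fun h0 => hQw (by rw [h0]; exact hQ0)
  have hXw : X *ᵥ w = w := by
    have h5 := LinearMap.mem_ker.mp hw
    rw [hfapp] at h5
    exact sub_eq_zero.mp h5
  refine ⟨F ∙ w, ⟨finrank_span_singleton hw0, w, Submodule.mem_span_singleton_self w, hQw⟩, ?_⟩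
  rw [Submodule.map_span, Set.image_singleton, Matrix.toLin'_apply, hXw]

/-- Minus form, characteristic 2: an isometry whose square is scalar fixes a nonsingular point.
The Witt bound (totally singular subspaces have dimension at most `m`) is the hypothesis `hts`. -/
theorem invol_fix_minus (m : ℕ) (a b : F) (hch : (2 : F) = 0)
    (hts : ∀ W : Submodule F ((Fin m ⊕ Fin m) ⊕ Fin 2 → F),
      (∀ w ∈ W, Cfsg.quadFormMinus m F a b w = 0) → Module.finrank F W ≤ m)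
    (x : GL ((Fin m ⊕ Fin m) ⊕ Fin 2) F)
    (hiso : ∀ u, Cfsg.quadFormMinus m F a b
      ((x : Matrix ((Fin m ⊕ Fin m) ⊕ Fin 2) ((Fin m ⊕ Fin m) ⊕ Fin 2) F) *ᵥ u) =
        Cfsg.quadFormMinus m F a b u)
    (hx2 : ∃ z : F, ((x ^ 2 : GL ((Fin m ⊕ Fin m) ⊕ Fin 2) F) :
      Matrix ((Fin m ⊕ Fin m) ⊕ Fin 2) ((Fin m ⊕ Fin m) ⊕ Fin 2) F) = z • 1) :
    ∃ W : Submodule F ((Fin m ⊕ Fin m) ⊕ Fin 2 → F),
      (Module.finrank F ↥W = 1 ∧ ∃ v ∈ W, Cfsg.quadFormMinus m F a b v ≠ 0) ∧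
        W.map (Matrix.toLin'
          (x : Matrix ((Fin m ⊕ Fin m) ⊕ Fin 2) ((Fin m ⊕ Fin m) ⊕ Fin 2) F)) ≤ W := by
  obtain ⟨z, hz⟩ := hx2
  have hxx : (x : Matrix ((Fin m ⊕ Fin m) ⊕ Fin 2) ((Fin m ⊕ Fin m) ⊕ Fin 2) F) *
      (x : Matrix ((Fin m ⊕ Fin m) ⊕ Fin 2) ((Fin m ⊕ Fin m) ⊕ Fin 2) F) = z • 1 := by
    rw [← hz, pow_two]
    rfl
  exact invol_fix_aux (Cfsg.quadFormMinus m F a b) m hch (fun c v => qm_smul m a b c v)
    (by rw [Fintype.card_sum, Fintype.card_sum, Fintype.card_fin, Fintype.card_fin]; ring)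
    hts _ hiso z hxx

/-- The same for elements of `Ω⁻` (indeed of the isometry group), in the shape used by S5986. -/
theorem invol_fix_minus_omega (m : ℕ) (a b : F) (hch : (2 : F) = 0)
    (hts : ∀ W : Submodule F ((Fin m ⊕ Fin m) ⊕ Fin 2 → F),
      (∀ w ∈ W, Cfsg.quadFormMinus m F a b w = 0) → Module.finrank F W ≤ m)
    (x : GL ((Fin m ⊕ Fin m) ⊕ Fin 2) F)
    (hxΩ : x ∈ Cfsg.Geo.omegaGL (Cfsg.quadFormMinus m F a b))
    (hx2 : ∃ z : F, ((x ^ 2 : GL ((Fin m ⊕ Fin m) ⊕ Fin 2) F) :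
      Matrix ((Fin m ⊕ Fin m) ⊕ Fin 2) ((Fin m ⊕ Fin m) ⊕ Fin 2) F) = z • 1) :
    ∃ W : Submodule F ((Fin m ⊕ Fin m) ⊕ Fin 2 → F),
      (Module.finrank F ↥W = 1 ∧ ∃ v ∈ W, Cfsg.quadFormMinus m F a b v ≠ 0) ∧
        W.map (Matrix.toLin'
          (x : Matrix ((Fin m ⊕ Fin m) ⊕ Fin 2) ((Fin m ⊕ Fin m) ⊕ Fin 2) F)) ≤ W := by
  obtain ⟨g, -, hgx⟩ := Subgroup.mem_map.mp hxΩ
  have hgx' : (g : GL ((Fin m ⊕ Fin m) ⊕ Fin 2) F) = x := hgx
  have hiso : ∀ u, Cfsg.quadFormMinus m F a b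
      ((x : Matrix ((Fin m ⊕ Fin m) ⊕ Fin 2) ((Fin m ⊕ Fin m) ⊕ Fin 2) F) *ᵥ u) =
        Cfsg.quadFormMinus m F a b u := by
    intro u
    rw [← hgx']
    exact g.2 u u
  exact invol_fix_minus m a b hch hts x hiso hx2

end Cfsg.Agent.Helper15.NS5b
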