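import Mathlib
import Cfsg.Agent.Helper27.SpE1

/-!
Piece P1 for S2469 (helper10): the fixed space of an isometry of order prime to the
characteristic inside a nondegenerate invariant subspace is nondegenerate, hence of even
dimension.
-/

namespace Cfsg.Agent.Helper15.PSpRS

theorem even_fix {F V : Type*} [Field F] [AddCommGroup V] [Module F V] [FiniteDimensional F V]
    (f : LinearMap.BilinForm F V) (halt : ∀ v, f v v = 0) (W : Submodule F V)
    (hW : ∀ w ∈ W, (∀ w' ∈ W, f w w' = 0) → w = 0) (X : Module.End F V)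
    (hX : ∀ u v, f (X u) (X v) = f u v) (hXW : ∀ w ∈ W, X w ∈ W) (s : ℕ) (hs : (s : F) ≠ 0)
    (hXs : X ^ s = 1) :
    (∀ w ∈ W ⊓ LinearMap.ker (X - 1), (∀ w' ∈ W ⊓ LinearMap.ker (X - 1), f w w' = 0) → w = 0) ∧
      Even (Module.finrank F ↥(W ⊓ LinearMap.ker (X - 1))) := by
  have hpowW : ∀ (i : ℕ) (u : V), u ∈ W → (X ^ i) u ∈ W := by
    intro i
    induction i with
    | zero =>
      intro u hu
      simpa using hu
    | succ k ih =>
      intro u hu
      rw [pow_succ', Module.End.mul_apply]
      exact hXW _ (ih u hu)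
  have hpowf : ∀ (i : ℕ) (a b : V), f ((X ^ i) a) ((X ^ i) b) = f a b := by
    intro i
    induction i with
    | zero =>
      intro a b
      simp
    | succ k ih =>
      intro a b
      rw [pow_succ', Module.End.mul_apply, Module.End.mul_apply, hX, ih]
  have hfixpow : ∀ (i : ℕ) (w : V), X w = w → (X ^ i) w = w := by
    intro i w hw
    induction i with
    | zero => simp
    | succ k ih => rw [pow_succ', Module.End.mul_apply, ih, hw]
  have hker : ∀ w : V, w ∈ LinearMap.ker (X - 1) ↔ X w = w := by
    intro w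
    rw [LinearMap.mem_ker, LinearMap.sub_apply, Module.End.one_apply, sub_eq_zero]
  have key : ∀ w ∈ W ⊓ LinearMap.ker (X - 1),
      (∀ w' ∈ W ⊓ LinearMap.ker (X - 1), f w w' = 0) → w = 0 := by
    intro w hw hw0
    have hwW : w ∈ W := (Submodule.mem_inf.mp hw).1
    have hwX : X w = w := (hker w).mp (Submodule.mem_inf.mp hw).2
    apply hW w hwW
    intro u hu
    have hbarW : (∑ i ∈ Finset.range s, (X ^ i) u) ∈ W :=
      Submodule.sum_mem W (fun i _ => hpowW i u hu)
    have hbarX : X (∑ i ∈ Finset.range s, (X ^ i) u) = ∑ i ∈ Finset.range s, (X ^ i) u := by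
      rw [map_sum]
      have e1 : ∀ i ∈ Finset.range s, X ((X ^ i) u) = (X ^ (i + 1)) u := by
        intro i _
        rw [pow_succ', Module.End.mul_apply]
      rw [Finset.sum_congr rfl e1]
      have e2 := Finset.sum_range_succ (fun i => (X ^ i) u) s
      have e3 := Finset.sum_range_succ' (fun i => (X ^ i) u) s
      rw [e2] at e3
      simp only [hXs, pow_zero] at e3
      exact (add_right_cancel e3).symm
    have h1 := hw0 _ (Submodule.mem_inf.mpr ⟨hbarW, (hker _).mpr hbarX⟩)
    rw [map_sum] at h1
    have e4 : ∀ i ∈ Finset.range s, f w ((X ^ i) u) = f w u := by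
      intro i _
      have h2 := hpowf i w u
      rw [hfixpow i w hwX] at h2
      exact h2
    rw [Finset.sum_congr rfl e4, Finset.sum_const, Finset.card_range, nsmul_eq_mul] at h1
    rcases mul_eq_zero.mp h1 with h | h
    · exact absurd h hs
    · exact h
  refine ⟨key, ?_⟩
  apply Cfsg.Agent.Helper27.SpE1.even_finrank f halt
  intro a ha ha0
  by_contra hcon
  push Not at hcon
  exact ha0 (key a ha hcon)

end Cfsg.Agent.Helper15.PSpRS
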