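import Mathlib
import Cfsg.Prelude.Def_Classical
import Cfsg.Prelude.Def_ClassicalGeometry

/-!
# Quadratic forms polarising to the standard symplectic form, characteristic 2 (pieces L2, L3 for S5983)

* `sf_nondeg` : the standard symplectic form is nondegenerate.
* `exists_diff` : two forms with polar form `sympForm` differ by `v ↦ (sympForm b v) ^ 2`.
* `reach` : if `Q b = w ^ 2 + w`, a symplectic transvection `g` in direction `b` has
  `Q (g v) = Q v + (sympForm b v) ^ 2`.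
-/

set_option autoImplicit false
open scoped MatrixGroups
open Cfsg

namespace Cfsg.Agent.Helper15.SpQa

open Matrix

variable {F : Type*} [Field F] {d : ℕ}

theorem sf_add_left (u u' v : Fin d ⊕ Fin d → F) :
    Cfsg.sympForm d F (u + u') v = Cfsg.sympForm d F u v + Cfsg.sympForm d F u' v := by
  unfold Cfsg.sympForm
  rw [add_dotProduct]

theorem sf_smul_left (a : F) (u v : Fin d ⊕ Fin d → F) :
    Cfsg.sympForm d F (a • u) v = a * Cfsg.sympForm d F u v := by
  unfold Cfsg.sympForm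
  rw [smul_dotProduct, smul_eq_mul]

theorem sf_add_right (u v v' : Fin d ⊕ Fin d → F) :
    Cfsg.sympForm d F u (v + v') = Cfsg.sympForm d F u v + Cfsg.sympForm d F u v' := by
  unfold Cfsg.sympForm
  rw [Matrix.mulVec_add, dotProduct_add]

theorem sf_smul_right (a : F) (u v : Fin d ⊕ Fin d → F) :
    Cfsg.sympForm d F u (a • v) = a * Cfsg.sympForm d F u v := by
  unfold Cfsg.sympForm
  rw [Matrix.mulVec_smul, dotProduct_smul, smul_eq_mul]

/-- The standard symplectic form is nondegenerate. -/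
theorem sf_nondeg {a : Fin d ⊕ Fin d → F} (h : ∀ v, Cfsg.sympForm d F a v = 0) : a = 0 := by
  have h1 : a ᵥ* Matrix.J (Fin d) F = 0 := by
    apply dotProduct_eq_zero
    intro v
    rw [← Matrix.dotProduct_mulVec]
    exact h v
  have h2 : (a ᵥ* Matrix.J (Fin d) F) ᵥ* Matrix.J (Fin d) F = 0 := by
    rw [h1, Matrix.zero_vecMul]
  rw [Matrix.vecMul_vecMul, Matrix.J_squared, Matrix.vecMul_neg, Matrix.vecMul_one,
    neg_eq_zero] at h2
  exact h2

theorem sq_inj_of_two (hch : (2 : F) = 0) {x y : F} (h : x ^ 2 = y ^ 2) : x = y := by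
  have h1 : (x - y) * (x - y) = 0 := by linear_combination h - (x * y - y ^ 2) * hch
  exact sub_eq_zero.mp (mul_self_eq_zero.mp h1)

/-- every linear functional is `sympForm b ·` -/
theorem exists_rep (lam : (Fin d ⊕ Fin d → F) →ₗ[F] F) :
    ∃ b : Fin d ⊕ Fin d → F, ∀ v, Cfsg.sympForm d F b v = lam v := by
  classical
  obtain ⟨w, hw⟩ : ∃ w : Fin d ⊕ Fin d → F, ∀ v, lam v = w ⬝ᵥ v := by
    refine ⟨fun i => lam (fun j => if i = j then 1 else 0), fun v => ?_⟩
    rw [LinearMap.pi_apply_eq_sum_univ lam v, dotProduct]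
    apply Finset.sum_congr rfl
    intro i _
    rw [smul_eq_mul, mul_comm]
  refine ⟨-(w ᵥ* Matrix.J (Fin d) F), fun v => ?_⟩
  unfold Cfsg.sympForm
  rw [Matrix.dotProduct_mulVec, Matrix.neg_vecMul, Matrix.vecMul_vecMul, Matrix.J_squared,
    Matrix.vecMul_neg, Matrix.vecMul_one, neg_neg]
  exact (hw v).symm

/-- (L2) Two forms with polar form `sympForm` differ by the square of a linear functional. -/
theorem exists_diff [Fintype F] (hch : (2 : F) = 0) (Q₁ Q₂ : (Fin d ⊕ Fin d → F) → F)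
    (hsm₁ : ∀ (c : F) (v : Fin d ⊕ Fin d → F), Q₁ (c • v) = c ^ 2 * Q₁ v)
    (hpol₁ : ∀ u v : Fin d ⊕ Fin d → F, Q₁ (u + v) = Q₁ u + Q₁ v + Cfsg.sympForm d F u v)
    (hsm₂ : ∀ (c : F) (v : Fin d ⊕ Fin d → F), Q₂ (c • v) = c ^ 2 * Q₂ v)
    (hpol₂ : ∀ u v : Fin d ⊕ Fin d → F, Q₂ (u + v) = Q₂ u + Q₂ v + Cfsg.sympForm d F u v) :
    ∃ b : Fin d ⊕ Fin d → F, ∀ v, Q₂ v = Q₁ v + (Cfsg.sympForm d F b v) ^ 2 := by
  classical
  have hsurj : Function.Surjective (fun x : F => x ^ 2) :=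
    Finite.injective_iff_surjective.mp (fun x y h => sq_inj_of_two hch h)
  choose lam hlam using fun v : Fin d ⊕ Fin d → F => hsurj (Q₂ v - Q₁ v)
  have hlam' : ∀ v, lam v ^ 2 = Q₂ v - Q₁ v := hlam
  have hadd : ∀ u v, lam (u + v) = lam u + lam v := by
    intro u v
    apply sq_inj_of_two hch
    rw [hlam', hpol₁, hpol₂]
    linear_combination (-1 : F) * hlam' u - hlam' v - (lam u * lam v) * hch
  have hsmul : ∀ (c : F) v, lam (c • v) = c * lam v := by
    intro c v
    apply sq_inj_of_two hch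
    rw [hlam', hsm₁, hsm₂]
    linear_combination (-(c ^ 2)) * hlam' v
  obtain ⟨b, hb⟩ := exists_rep (d := d)
    ({ toFun := lam
       map_add' := hadd
       map_smul' := fun c v => by
        rw [hsmul c v]
        rfl } : (Fin d ⊕ Fin d → F) →ₗ[F] F)
  refine ⟨b, fun v => ?_⟩
  have hbv : Cfsg.sympForm d F b v = lam v := hb v
  rw [hbv, hlam' v]
  ring

theorem vmv (b u v : Fin d ⊕ Fin d → F) : Matrix.vecMulVec b u *ᵥ v = (u ⬝ᵥ v) • b := by
  funext i
  simp only [Matrix.mulVec, dotProduct, Matrix.vecMulVec_apply, Pi.smul_apply, smul_eq_mul]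
  rw [Finset.sum_mul]
  apply Finset.sum_congr rfl
  intro j _
  ring

/-- the transvection formula -/
theorem tv_mulVec (b : Fin d ⊕ Fin d → F) (c : F) (v : Fin d ⊕ Fin d → F) :
    (1 + c • Matrix.vecMulVec b (Matrix.J (Fin d) F *ᵥ b)) *ᵥ v =
      v + (c * Cfsg.sympForm d F v b) • b := by
  rw [Matrix.add_mulVec, Matrix.one_mulVec, Matrix.smul_mulVec, vmv, smul_smul]
  unfold Cfsg.sympForm
  rw [dotProduct_comm]

/-- (L3) If `Q b ∈ ℘(F)`, a symplectic transvection moves `Q` to `Q + (sympForm b ·) ^ 2`. -/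
theorem reach (hch : (2 : F) = 0) (Q : (Fin d ⊕ Fin d → F) → F)
    (hsm : ∀ (c : F) (v : Fin d ⊕ Fin d → F), Q (c • v) = c ^ 2 * Q v)
    (hpol : ∀ u v : Fin d ⊕ Fin d → F, Q (u + v) = Q u + Q v + Cfsg.sympForm d F u v)
    (b : Fin d ⊕ Fin d → F) (hb : ∃ w : F, w ^ 2 + w = Q b) :
    ∃ (g : GL (Fin d ⊕ Fin d) F) (c : F), g ∈ Cfsg.spGL d F ∧
      (∀ v, (g : Matrix (Fin d ⊕ Fin d) (Fin d ⊕ Fin d) F) *ᵥ v =
        v + (c * Cfsg.sympForm d F v b) • b) ∧
      ∀ v, Q ((g : Matrix (Fin d ⊕ Fin d) (Fin d ⊕ Fin d) F) *ᵥ v) =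
        Q v + (Cfsg.sympForm d F b v) ^ 2 := by
  classical
  have hQ0 : Q 0 = 0 := by
    have h := hsm 0 0
    rw [zero_smul] at h
    rw [h]
    ring
  have hsymm : ∀ u v, Cfsg.sympForm d F u v = Cfsg.sympForm d F v u := by
    intro u v
    have h1 := hpol u v
    have h2 := hpol v u
    rw [add_comm v u] at h2
    linear_combination h2 - h1
  have hbb : Cfsg.sympForm d F b b = 0 := by
    have h := hpol b b
    have hbb0 : b + b = 0 := by rw [← two_smul F b, hch, zero_smul]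
    rw [hbb0, hQ0] at h
    linear_combination (-1 : F) * h - Q b * hch
  -- the scalar
  obtain ⟨c, hc⟩ : ∃ c : F, c ^ 2 * Q b + c = 1 := by
    obtain ⟨w, hw⟩ := hb
    by_cases hQb : Q b = 0
    · exact ⟨1, by rw [hQb]; ring⟩
    · have hw0 : w ≠ 0 := by
        intro h0
        apply hQb
        rw [← hw, h0]
        ring
      have h1 : w⁻¹ * w = 1 := inv_mul_cancel₀ hw0
      refine ⟨w⁻¹, ?_⟩
      rw [← hw]
      linear_combination (w⁻¹ * w + 1 + w⁻¹) * h1 + w⁻¹ * hch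
  obtain ⟨T, hTdef⟩ : ∃ T : Matrix (Fin d ⊕ Fin d) (Fin d ⊕ Fin d) F,
      T = 1 + c • Matrix.vecMulVec b (Matrix.J (Fin d) F *ᵥ b) := ⟨_, rfl⟩
  have hT : ∀ v, T *ᵥ v = v + (c * Cfsg.sympForm d F v b) • b := by
    intro v
    rw [hTdef]
    exact tv_mulVec b c v
  have hTT : T * T = 1 := by
    apply Matrix.toLin'.injective
    apply LinearMap.ext
    intro v
    rw [Matrix.toLin'_apply, ← Matrix.mulVec_mulVec, Matrix.toLin'_apply, Matrix.one_mulVec,
      hT v, hT, sf_add_left, sf_smul_left, hbb, mul_zero, add_zero, add_assoc, ← add_smul]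
    have h0 : c * Cfsg.sympForm d F v b + c * Cfsg.sympForm d F v b = 0 := by
      linear_combination (c * Cfsg.sympForm d F v b) * hch
    rw [h0, zero_smul, add_zero]
  refine ⟨⟨T, T, hTT, hTT⟩, c, ?_, hT, ?_⟩
  · intro u v
    show Cfsg.sympForm d F (T *ᵥ u) (T *ᵥ v) = Cfsg.sympForm d F u v
    rw [hT u, hT v]
    have e : Cfsg.sympForm d F (u + (c * Cfsg.sympForm d F u b) • b)
        (v + (c * Cfsg.sympForm d F v b) • b) =
        Cfsg.sympForm d F u v + 2 * (c * Cfsg.sympForm d F u b * Cfsg.sympForm d F v b) := by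
      simp only [sf_add_left, sf_add_right, sf_smul_left, sf_smul_right, hbb, hsymm b v]
      ring
    rw [e, hch, zero_mul, add_zero]
  · intro v
    show Q (T *ᵥ v) = Q v + (Cfsg.sympForm d F b v) ^ 2
    rw [hT v, hpol, hsm, sf_smul_right, hsymm b v]
    linear_combination (Cfsg.sympForm d F v b) ^ 2 * hc

end Cfsg.Agent.Helper15.SpQa
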